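import Mathlib
import Cfsg.Agent.Lib.Helper29.Mono.Api

set_option autoImplicit false

namespace Cfsg.Agent.Lib.Helper8.Mono

open Cfsg.Agent.Lib.Helper29.Mono Matrix
open scoped MatrixGroups

variable {ι : Type} [Fintype ι] [DecidableEq ι] {F : Type*} [Field F]

/-- the cubic equation satisfied by a conjugate of a diagonal matrix with three eigenvalues -/
theorem cubic_conj (x : GL ι F) (D : ι → Fˣ) (r v : F)
    (hD : ∀ i, (D i : F) = r ∨ (D i : F) = v ∨ (D i : F) = 1) (δ : GL ι F)
    (hδ : δ = x⁻¹ * diagU D * x) :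
    ((δ * δ * δ : GL ι F) : Matrix ι ι F) - (r + v + 1) • ((δ * δ : GL ι F) : Matrix ι ι F)
      + (r * v + r + v) • (δ : Matrix ι ι F) - (r * v) • (1 : Matrix ι ι F) = 0 := by
  have e3 : δ * δ * δ = x⁻¹ * (diagU D * diagU D * diagU D) * x := by rw [hδ]; group
  have e2 : δ * δ = x⁻¹ * (diagU D * diagU D) * x := by rw [hδ]; group
  have hP : (diagU D : Matrix ι ι F) * (diagU D : Matrix ι ι F) * (diagU D : Matrix ι ι F)
      - (r + v + 1) • ((diagU D : Matrix ι ι F) * (diagU D : Matrix ι ι F))
      + (r * v + r + v) • (diagU D : Matrix ι ι F) - (r * v) • (1 : Matrix ι ι F) = 0 := by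
    rw [coe_diagU, Matrix.diagonal_mul_diagonal, Matrix.diagonal_mul_diagonal]
    ext i j
    by_cases hij : i = j
    · subst hij
      simp only [Matrix.sub_apply, Matrix.add_apply, Matrix.smul_apply, Matrix.diagonal_apply_eq,
        Matrix.one_apply_eq, smul_eq_mul, Matrix.zero_apply]
      have : ((D i : F) - r) * ((D i : F) - v) * ((D i : F) - 1) = 0 := by
        rcases hD i with h | h | h <;> rw [h] <;> ring
      linear_combination this
    · simp [Matrix.diagonal_apply_ne _ hij, Matrix.one_apply_ne hij]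
  have hone : ((x⁻¹ : GL ι F) : Matrix ι ι F) * 1 * (x : Matrix ι ι F) = 1 := by
    rw [Matrix.mul_one, ← Units.val_mul, inv_mul_cancel, Units.val_one]
  have h0 := congrArg (fun P => ((x⁻¹ : GL ι F) : Matrix ι ι F) * P * (x : Matrix ι ι F)) hP
  simp only [Matrix.mul_sub, Matrix.mul_add, Matrix.sub_mul, Matrix.add_mul, Matrix.mul_smul,
    Matrix.smul_mul, Matrix.mul_zero, Matrix.zero_mul, hone] at h0
  rw [e3, e2, hδ]
  simp only [Units.val_mul]
  exact h0

/-- [B3] -/
theorem b3 [Fintype F] {G : Subgroup (GL ι F)} (hG : Ctx G) (hC1 : C1Prop G)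
    (hcard : ∀ (x : GL ι F) (J J' : Finset ι),
      (∀ i j, j ∈ J → i ∉ J' → (x : Matrix ι ι F) i j = 0) → J.card ≤ J'.card) : B3Prop G := by
  classical
  intro ρ hρ s hs x hx hmono
  obtain ⟨π, hπ⟩ := hmono
  set D : ι → Fˣ := fun i => if i = s 0 ∨ i = s 1 then ρ else if i = s 2 then (ρ⁻¹) ^ 2 else 1
    with hDdef
  have hd3 : d3 ρ s = diagU D := rfl
  set δ : GL ι F := x⁻¹ * d3 ρ s * x with hδ
  set r : F := (ρ : F) with hr
  set u : F := ((ρ⁻¹ : Fˣ) : F) with hu
  have hru : r * u = 1 := by rw [hr, hu, ← Units.val_mul, mul_inv_cancel, Units.val_one]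
  have hr1 : r ≠ 1 := by
    intro h
    apply hρ
    apply Units.ext
    rw [Units.val_pow_eq_pow_val, ← hr, h, one_pow, Units.val_one]
  have hDv : ∀ i, (D i : F) = r ∨ (D i : F) = u ^ 2 ∨ (D i : F) = 1 := by
    intro i
    simp only [hDdef]
    split_ifs
    · exact Or.inl rfl
    · right; left
      rw [Units.val_pow_eq_pow_val]
    · right; right
      rfl
  have hcub := cubic_conj x D r (u ^ 2) hDv δ (by rw [hδ, hd3])
  have hπ2 := mono_mul_perm hπ hπ
  have hπ3 := mono_mul_perm hπ2 hπ
  rw [← Units.val_mul] at hπ2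
  rw [← Units.val_mul, ← Units.val_mul] at hπ3
  -- the permutation is an involution
  have hinv : ∀ j, π (π j) = j := by
    intro j
    by_contra hne
    have hne1 : π j ≠ j := by
      intro h
      apply hne
      rw [h, h]
    have a1 := congrFun (congrFun hcub (π j)) j
    have a2 := congrFun (congrFun hcub (π (π j))) j
    simp only [Matrix.sub_apply, Matrix.add_apply, Matrix.smul_apply, smul_eq_mul,
      Matrix.zero_apply] at a1 a2
    have z31 : ((δ * δ * δ : GL ι F) : Matrix ι ι F) (π j) j = 0 := by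
      by_contra h0
      have := hπ3 _ _ h0
      simp only [Equiv.Perm.mul_apply] at this
      exact hne (π.injective this).symm
    have z21 : ((δ * δ : GL ι F) : Matrix ι ι F) (π j) j = 0 := by
      by_contra h0
      have := hπ2 _ _ h0
      simp only [Equiv.Perm.mul_apply] at this
      exact hne1 (π.injective this).symm
    have z32 : ((δ * δ * δ : GL ι F) : Matrix ι ι F) (π (π j)) j = 0 := by
      by_contra h0
      have := hπ3 _ _ h0
      simp only [Equiv.Perm.mul_apply] at this
      exact hne1 (π.injective (π.injective this)).symm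
    have z12 : (δ : Matrix ι ι F) (π (π j)) j = 0 := by
      by_contra h0
      have := hπ _ _ h0
      exact hne1 (π.injective this)
    rw [z31, z21, Matrix.one_apply_ne hne1] at a1
    rw [z32, z12, Matrix.one_apply_ne hne] at a2
    have n1 := mono_entry_ne_zero δ hπ j
    have n2 := mono_entry_ne_zero (δ * δ) hπ2 j
    simp only [Equiv.Perm.mul_apply] at n2
    have e2 : r * u ^ 2 + r + u ^ 2 = 0 := by
      have : (r * u ^ 2 + r + u ^ 2) * (δ : Matrix ι ι F) (π j) j = 0 := by linear_combination a1
      exact (mul_eq_zero.1 this).resolve_right n1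
    have e1 : r + u ^ 2 + 1 = 0 := by
      have : (r + u ^ 2 + 1) * ((δ * δ : GL ι F) : Matrix ι ι F) (π (π j)) j = 0 := by
        linear_combination -a2
      exact (mul_eq_zero.1 this).resolve_right n2
    have hu1 : u = 1 := by linear_combination e2 - e1 - u * hru
    apply hr1
    rw [hu1, mul_one] at hru
    exact hru
  have hdiag : ∀ i j, ((δ * δ : GL ι F) : Matrix ι ι F) i j ≠ 0 → i = j := by
    intro i j h
    have := hπ2 i j h
    rwa [Equiv.Perm.mul_apply, hinv] at this
  -- intertwining
  have hint : diagU D * diagU D * x = x * (δ * δ) := by rw [hδ, hd3]; group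
  have hent : ∀ i j, (D i : F) ^ 2 * (x : Matrix ι ι F) i j
      = (x : Matrix ι ι F) i j * ((δ * δ : GL ι F) : Matrix ι ι F) j j := by
    intro i j
    have h1 : ((diagU D * diagU D * x : GL ι F) : Matrix ι ι F) i j
        = ((x * (δ * δ) : GL ι F) : Matrix ι ι F) i j := by rw [hint]
    rw [Units.val_mul, Units.val_mul, coe_diagU, Matrix.diagonal_mul_diagonal,
      Matrix.diagonal_mul, Units.val_mul x, Matrix.mul_apply, Finset.sum_eq_single j] at h1
    · rw [← h1]; ring
    · intro k _ hk
      have : ((δ * δ : GL ι F) : Matrix ι ι F) k j = 0 := by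
        by_contra h0
        exact hk (hdiag k j h0)
      rw [this, mul_zero]
    · intro h0
      exact absurd (Finset.mem_univ _) h0
  set J : Finset ι := Finset.univ.filter (fun j => ((δ * δ : GL ι F) : Matrix ι ι F) j j = 1) with hJ
  set J' : Finset ι := Finset.univ.filter (fun i => (D i : F) ^ 2 = 1) with hJ'
  have hz1 : ∀ i j, j ∈ J → i ∉ J' → (x : Matrix ι ι F) i j = 0 := by
    intro i j hj hi
    simp only [hJ, hJ', Finset.mem_filter, Finset.mem_univ, true_and] at hj hi
    have h1 := hent i j
    rw [hj, mul_one] at h1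
    have h2 : ((D i : F) ^ 2 - 1) * (x : Matrix ι ι F) i j = 0 := by linear_combination h1
    exact (mul_eq_zero.1 h2).resolve_left (sub_ne_zero.2 hi)
  have hz2 : ∀ i j, j ∈ Jᶜ → i ∉ J'ᶜ → (x : Matrix ι ι F) i j = 0 := by
    intro i j hj hi
    simp only [hJ, hJ', Finset.mem_compl, Finset.mem_filter, Finset.mem_univ, true_and,
      not_not] at hj hi
    have h1 := hent i j
    rw [hi, one_mul] at h1
    have h2 : (((δ * δ : GL ι F) : Matrix ι ι F) j j - 1) * (x : Matrix ι ι F) i j = 0 := by
      linear_combination -h1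
    exact (mul_eq_zero.1 h2).resolve_left (sub_ne_zero.2 hj)
  have c1 := hcard x J J' hz1
  have c2 := hcard x Jᶜ J'ᶜ hz2
  rw [Finset.card_compl, Finset.card_compl] at c2
  have cJ : J.card ≤ Fintype.card ι := Finset.card_le_univ J
  have cJ' : J'.card ≤ Fintype.card ι := Finset.card_le_univ J'
  have hcc : J.card = J'.card := by omega
  -- J' is proper and non-empty
  have hJ'0 : 0 < J'.card := by
    obtain ⟨m, hm⟩ : ∃ m : ι, m ∉ ({s 0, s 1, s 2} : Finset ι) := by
      by_contra hcon
      push Not at hcon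
      have h1 : Fintype.card ι ≤ ({s 0, s 1, s 2} : Finset ι).card := by
        rw [← Finset.card_univ]
        exact Finset.card_le_card fun x _ => hcon x
      have h3 : ({s 0, s 1, s 2} : Finset ι).card ≤ 3 := Finset.card_le_three
      have := hG.n13
      omega
    simp only [Finset.mem_insert, Finset.mem_singleton, not_or] at hm
    apply Finset.card_pos.2
    refine ⟨m, ?_⟩
    simp only [hJ', Finset.mem_filter, Finset.mem_univ, true_and, hDdef]
    rw [if_neg (by tauto), if_neg hm.2.2]
    simp
  have hJ'1 : J'.card < Fintype.card ι := by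
    rw [← Finset.card_univ]
    apply Finset.card_lt_card
    rw [Finset.ssubset_univ_iff]
    intro h
    have : s 0 ∈ J' := h ▸ Finset.mem_univ _
    have hD0 : D (s 0) = ρ := by simp [hDdef]
    simp only [hJ', Finset.mem_filter, Finset.mem_univ, true_and, hD0] at this
    apply hρ
    apply Units.ext
    rw [Units.val_pow_eq_pow_val, this, Units.val_one]
  refine hC1 x hx J J' (Finset.card_pos.1 (by omega)) ?_ hcc hz1
  intro h
  rw [h, Finset.card_univ] at hcc
  omega

end Cfsg.Agent.Lib.Helper8.Mono
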