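import Mathlib
import Cfsg.Agent.Lib.Helper29.Mono.Api

set_option autoImplicit false

namespace Cfsg.Agent.Lib.Helper8.Mono

open Cfsg.Agent.Lib.Helper29.Mono Matrix
open scoped MatrixGroups

variable {ι : Type} [Fintype ι] [DecidableEq ι] {F : Type*} [Field F]

/-- the pointwise fixer of a set of vectors -/
def fixSub (W : Set (ι → F)) : Subgroup (GL ι F) where
  carrier := {h | ∀ w ∈ W, (h : Matrix ι ι F) *ᵥ w = w}
  mul_mem' := fun {a b} ha hb w hw => by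
    rw [Units.val_mul, ← Matrix.mulVec_mulVec, hb w hw, ha w hw]
  one_mem' := fun w _ => by rw [Units.val_one, Matrix.one_mulVec]
  inv_mem' := fun {a} ha w hw => by
    conv_lhs => rw [← ha w hw]
    rw [Matrix.mulVec_mulVec, ← Units.val_mul, inv_mul_cancel, Units.val_one, Matrix.one_mulVec]

lemma mem_fixSub (W : Set (ι → F)) (h : GL ι F) :
    h ∈ fixSub W ↔ ∀ w ∈ W, (h : Matrix ι ι F) *ᵥ w = w := Iff.rfl

lemma diagU_pow (d : ι → Fˣ) (m : ℕ) : (diagU d) ^ m = diagU (fun i => d i ^ m) := by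
  apply Units.ext
  rw [Units.val_pow_eq_pow_val, coe_diagU, coe_diagU, Matrix.diagonal_pow]
  congr 1


lemma diagU_one' : diagU (fun _ : ι => (1 : Fˣ)) = 1 := by
  apply Units.ext
  rw [coe_diagU]
  simp

lemma d3_pow_eq_one (ρ : Fˣ) (s : Fin 3 → ι) (m : ℕ) (h : ρ ^ m = 1) : (d3 ρ s) ^ m = 1 := by
  unfold d3
  rw [diagU_pow, ← diagU_one']
  congr 1
  funext i
  split_ifs
  · exact h
  · rw [← pow_mul, mul_comm, pow_mul, inv_pow, h, inv_one, one_pow]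
  · exact one_pow m

/-- [B4] -/
theorem b4 [Fintype F] {G : Subgroup (GL ι F)} (hG : Ctx G) (hB3 : B3Prop G)
    (hρ : ∃ (r : ℕ) (ρ : Fˣ), r.Prime ∧ ρ ^ 2 ≠ 1 ∧ ∃ k : ℕ, ρ ^ r ^ k = 1)
    (habs : ∀ (N X : Subgroup (GL ι F)) (r : ℕ), r.Prime → ∀ a b g : GL ι F, a ∈ X → b ∈ X →
      (∃ k : ℕ, a ^ r ^ k = 1) → (∃ k : ℕ, b ^ r ^ k = 1) → g⁻¹ * a * g ∈ N →
      (∀ h ∈ X, (h * g)⁻¹ * a * (h * g) ∈ N → g⁻¹ * (h * g) ∈ N) →
      ∃ h ∈ X, (h * g)⁻¹ * b * (h * g) ∈ N) : B4Prop G := by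
  intro g hg s s' hs hs'
  obtain ⟨r, ρ, hr, hρ2, k, hk⟩ := hρ
  set W : Set (ι → F) := {w | (∀ k, w (s k) = 0) ∧
    ∀ k, (((g⁻¹ : GL ι F) : Matrix ι ι F) *ᵥ w) (s' k) = 0} with hW
  have hdG : ∀ t : Fin 3 → ι, Function.Injective t → d3 ρ t ∈ G := fun t ht =>
    hG.hN _ (isMono_diagU _) (det_d3 ρ ht)
  have hdM : ∀ t : Fin 3 → ι, d3 ρ t ∈ monoSub ι F := fun t => isMono_diagU _
  have haX : g * d3 ρ s' * g⁻¹ ∈ G ⊓ fixSub W := by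
    refine Subgroup.mem_inf.2 ⟨G.mul_mem (G.mul_mem hg (hdG s' hs')) (G.inv_mem hg), ?_⟩
    intro w hw
    rw [Units.val_mul, Units.val_mul, ← Matrix.mulVec_mulVec, ← Matrix.mulVec_mulVec,
      d3_mulVec_eq ρ s' _ hw.2, Matrix.mulVec_mulVec, ← Units.val_mul, mul_inv_cancel,
      Units.val_one, Matrix.one_mulVec]
  have hbX : d3 ρ s ∈ G ⊓ fixSub W := by
    refine Subgroup.mem_inf.2 ⟨hdG s hs, ?_⟩
    intro w hw
    exact d3_mulVec_eq ρ s _ hw.1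
  obtain ⟨h, hhX, hh⟩ := habs (G ⊓ monoSub ι F) (G ⊓ fixSub W) r hr (g * d3 ρ s' * g⁻¹) (d3 ρ s) g
    haX hbX ⟨k, by rw [conj_pow, d3_pow_eq_one ρ s' _ hk]; group⟩
    ⟨k, d3_pow_eq_one ρ s _ hk⟩
    (by
      have : g⁻¹ * (g * d3 ρ s' * g⁻¹) * g = d3 ρ s' := by group
      rw [this]
      exact Subgroup.mem_inf.2 ⟨hdG s' hs', hdM s'⟩)
    (by
      intro h hh hmem
      have hhG : h ∈ G := (Subgroup.mem_inf.1 hh).1
      have hxG : g⁻¹ * (h * g) ∈ G := G.mul_mem (G.inv_mem hg) (G.mul_mem hhG hg)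
      refine Subgroup.mem_inf.2 ⟨hxG, ?_⟩
      have e : (h * g)⁻¹ * (g * d3 ρ s' * g⁻¹) * (h * g)
          = (g⁻¹ * (h * g))⁻¹ * d3 ρ s' * (g⁻¹ * (h * g)) := by group
      rw [e] at hmem
      exact hB3 ρ hρ2 s' hs' _ hxG (Subgroup.mem_inf.1 hmem).2)
  have hhG : h ∈ G := (Subgroup.mem_inf.1 hhX).1
  refine ⟨h, hhG, fun w hw1 hw2 => (Subgroup.mem_inf.1 hhX).2 w ⟨hw1, hw2⟩, ?_⟩
  exact hB3 ρ hρ2 s hs _ (G.mul_mem hhG hg) (Subgroup.mem_inf.1 hh).2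

end Cfsg.Agent.Lib.Helper8.Mono
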