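import Mathlib
import Cfsg.Agent.Lib.Helper29.Mono.Api

set_option autoImplicit false

namespace Cfsg.Agent.Lib.Helper8.Mono

open Cfsg.Agent.Lib.Helper29.Mono Matrix
open scoped MatrixGroups

theorem isPGroup_zpowers_of_pow {H : Type*} [Group H] {r : ℕ} {a : H}
    (h : ∃ k : ℕ, a ^ r ^ k = 1) : IsPGroup r (Subgroup.zpowers a) := by
  obtain ⟨k, hk⟩ := h
  rintro ⟨y, hy⟩
  obtain ⟨n, rfl⟩ := Subgroup.mem_zpowers_iff.1 hy
  refine ⟨k, Subtype.ext ?_⟩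
  simp only [Subgroup.coe_pow, Subgroup.coe_one]
  rw [← zpow_natCast, ← _root_.zpow_mul, mul_comm, _root_.zpow_mul, zpow_natCast, hk, _root_.one_zpow]

/-- [B4abs] -/
theorem fixed_point_transfer {𝔾 : Type*} [Group 𝔾] [Finite 𝔾] (N X : Subgroup 𝔾) (r : ℕ)
    (hr : r.Prime) (a b g : 𝔾) (ha : a ∈ X) (hb : b ∈ X) (hao : ∃ k : ℕ, a ^ r ^ k = 1)
    (hbo : ∃ k : ℕ, b ^ r ^ k = 1) (hg : g⁻¹ * a * g ∈ N)
    (huniq : ∀ h ∈ X, (h * g)⁻¹ * a * (h * g) ∈ N → g⁻¹ * (h * g) ∈ N) :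
    ∃ h ∈ X, (h * g)⁻¹ * b * (h * g) ∈ N := by
  classical
  have := Fact.mk hr
  set x0 : 𝔾 ⧸ N := (g : 𝔾 ⧸ N) with hx0
  -- key translation
  have key : ∀ (c h : 𝔾), c • ((h * g : 𝔾) : 𝔾 ⧸ N) = ((h * g : 𝔾) : 𝔾 ⧸ N) ↔
      (h * g)⁻¹ * c * (h * g) ∈ N := by
    intro c h
    rw [MulAction.Quotient.smul_coe, eq_comm, QuotientGroup.eq, smul_eq_mul, mul_assoc]
  have hpA : IsPGroup r (Subgroup.zpowers (⟨a, ha⟩ : X)) := by
    apply isPGroup_zpowers_of_pow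
    obtain ⟨k, hk⟩ := hao
    exact ⟨k, Subtype.ext (by simpa using hk)⟩
  have hpB : IsPGroup r (Subgroup.zpowers (⟨b, hb⟩ : X)) := by
    apply isPGroup_zpowers_of_pow
    obtain ⟨k, hk⟩ := hbo
    exact ⟨k, Subtype.ext (by simpa using hk)⟩
  -- fixed points of a cyclic group
  have hfix : ∀ (c : X) (y : MulAction.orbit X x0),
      y ∈ MulAction.fixedPoints (Subgroup.zpowers c) (MulAction.orbit X x0) ↔ c • y = y := by
    intro c y
    constructor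
    · intro h
      exact h ⟨c, Subgroup.mem_zpowers c⟩
    · rintro h ⟨z, hz⟩
      obtain ⟨n, rfl⟩ := Subgroup.mem_zpowers_iff.1 hz
      change (c ^ n) • y = y
      exact MulAction.mem_fixedBy_zpow (g := c) (a := y) h n
  -- every point of the orbit
  have horb : ∀ y : MulAction.orbit X x0, ∃ h ∈ X, (y : 𝔾 ⧸ N) = ((h * g : 𝔾) : 𝔾 ⧸ N) := by
    rintro ⟨y, ⟨h, hh⟩, rfl⟩
    exact ⟨h, hh, rfl⟩
  have hsm : ∀ (c : 𝔾) (hc : c ∈ X) (y : MulAction.orbit X x0),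
      (⟨c, hc⟩ : X) • y = y ↔ c • (y : 𝔾 ⧸ N) = (y : 𝔾 ⧸ N) := by
    intro c hc y
    rw [Subtype.ext_iff]
    rfl
  let y0 : MulAction.orbit X x0 := ⟨x0, MulAction.mem_orbit_self x0⟩
  have hy0 : y0 ∈ MulAction.fixedPoints (Subgroup.zpowers (⟨a, ha⟩ : X)) (MulAction.orbit X x0) := by
    rw [hfix, hsm]
    have := (key a 1).2 (by simpa using hg)
    rw [one_mul] at this
    exact this
  have hnd : ¬ r ∣ Nat.card (MulAction.orbit X x0) := by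
    intro hd
    obtain ⟨y, hy, hne⟩ := hpA.exists_fixed_point_of_prime_dvd_card_of_fixed_point _ hd hy0
    apply hne
    obtain ⟨h, hh, hyh⟩ := horb y
    rw [hfix, hsm, hyh, key] at hy
    have h2 := huniq h hh hy
    apply Subtype.ext
    rw [hyh]
    exact QuotientGroup.eq.2 h2
  obtain ⟨y, hy⟩ := hpB.nonempty_fixed_point_of_prime_not_dvd_card _ hnd
  obtain ⟨h, hh, hyh⟩ := horb y
  rw [hfix, hsm, hyh, key] at hy
  exact ⟨h, hh, hy⟩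

end Cfsg.Agent.Lib.Helper8.Mono
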