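import Mathlib
import Cfsg.Agent.Lib.Helper29.Mono.Api

set_option autoImplicit false

namespace Cfsg.Agent.Lib.Helper8.Mono

open Cfsg.Agent.Lib.Helper29.Mono Matrix
open scoped MatrixGroups

variable {ι : Type} [Fintype ι] [DecidableEq ι] {F : Type*} [Field F]

/-- extension by zero of a vector indexed by a finset -/
def ext0 (J : Finset ι) (c : {x // x ∈ J} → F) : ι → F :=
  fun j => if h : j ∈ J then c ⟨j, h⟩ else 0

lemma ext0_mem (J : Finset ι) (c : {x // x ∈ J} → F) (j : {x // x ∈ J}) : ext0 J c j = c j := by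
  simp [ext0]

lemma ext0_not_mem (J : Finset ι) (c : {x // x ∈ J} → F) {j : ι} (hj : j ∉ J) :
    ext0 J c j = 0 := by
  simp [ext0, hj]

lemma mulVec_ext0 {κ : Type*} (A : Matrix κ ι F) (J : Finset ι) (c : {x // x ∈ J} → F) :
    A *ᵥ ext0 J c = (A.submatrix id Subtype.val) *ᵥ c := by
  funext i
  simp only [Matrix.mulVec, dotProduct, Matrix.submatrix_apply, id]
  rw [← Finset.sum_subset (Finset.subset_univ J)
    (fun j _ hj => by rw [ext0_not_mem J c hj, mul_zero]), ← Finset.sum_attach]
  rw [Finset.univ_eq_attach]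
  apply Finset.sum_congr rfl
  intro j _
  rw [ext0_mem]

/-- [CARD] -/
theorem card_le_of_zero_block (x : GL ι F) (J J' : Finset ι)
    (h : ∀ i j, j ∈ J → i ∉ J' → (x : Matrix ι ι F) i j = 0) : J.card ≤ J'.card := by
  classical
  set A : Matrix {x // x ∈ J'} {x // x ∈ J} F :=
    (x : Matrix ι ι F).submatrix Subtype.val Subtype.val with hA
  have hinj : Function.Injective A.mulVecLin := by
    rw [← LinearMap.ker_eq_bot, LinearMap.ker_eq_bot']
    intro c hc
    rw [Matrix.mulVecLin_apply] at hc
    have h0 : (x : Matrix ι ι F) *ᵥ ext0 J c = 0 := by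
      rw [mulVec_ext0]
      funext i
      by_cases hi : i ∈ J'
      · have := congrFun hc ⟨i, hi⟩
        simpa [hA, Matrix.mulVec, dotProduct] using this
      · simp only [Matrix.mulVec, dotProduct, Matrix.submatrix_apply, id, Pi.zero_apply]
        apply Finset.sum_eq_zero
        intro j _
        rw [h i j j.2 hi, zero_mul]
    have h1 : ext0 J c = 0 := by
      have := congrArg (fun v => ((x⁻¹ : GL ι F) : Matrix ι ι F) *ᵥ v) h0
      simp only [Matrix.mulVec_mulVec, Matrix.mulVec_zero] at this
      rwa [← Units.val_mul, inv_mul_cancel, Units.val_one, Matrix.one_mulVec] at this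
    funext j
    rw [← ext0_mem J c j, h1]
    rfl
  have := LinearMap.finrank_le_finrank_of_injective hinj
  simpa using this

end Cfsg.Agent.Lib.Helper8.Mono
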