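import Mathlib
import Cfsg.Agent.Lib.Helper29.Mono.Api

set_option autoImplicit false

namespace Cfsg.Agent.Lib.Helper8.Mono

open Cfsg.Agent.Lib.Helper29.Mono Matrix
open scoped MatrixGroups

variable {ι : Type} [Fintype ι] [DecidableEq ι] {F : Type*} [Field F]

omit [Fintype ι] in
theorem exists_perm_two {a b i j : ι} (hab : a ≠ b) (hij : i ≠ j) :
    ∃ π : Equiv.Perm ι, π a = i ∧ π b = j := by
  have hb' : Equiv.swap a i b ≠ i := by
    intro h
    apply hab
    have : Equiv.swap a i b = Equiv.swap a i a := by rw [h, Equiv.swap_apply_left]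
    exact ((Equiv.swap a i).injective this).symm
  refine ⟨Equiv.swap (Equiv.swap a i b) j * Equiv.swap a i, ?_, ?_⟩
  · rw [Equiv.Perm.mul_apply, Equiv.swap_apply_left, Equiv.swap_apply_of_ne_of_ne hb'.symm hij]
  · rw [Equiv.Perm.mul_apply, Equiv.swap_apply_left]

/-- [GEN] -/
theorem all_roots (hn : 3 ≤ Fintype.card ι) (G : Subgroup (GL ι F))
    (hN : ∀ g : GL ι F, IsMono (g : Matrix ι ι F) → (g : Matrix ι ι F).det = 1 → g ∈ G)
    (hR : HasRoot G) : ∀ (i j : ι) (hij : i ≠ j) (t : F), rootU hij t ∈ G := by
  classical
  obtain ⟨g, hg, a, b, hab, t, ht, hgt⟩ := hR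
  -- all the root elements at the place `(a, b)`
  have step1 : ∀ s : F, rootU hab s ∈ G := by
    intro s
    by_cases hs : s = 0
    · have : rootU hab s = 1 := by
        apply Units.ext
        rw [coe_rootU, hs, Matrix.transvection_zero, Units.val_one]
      rw [this]
      exact G.one_mem
    obtain ⟨k, hk⟩ : ∃ k : ι, k ∉ ({a, b} : Finset ι) := by
      by_contra hcon
      push Not at hcon
      have h1 : Fintype.card ι ≤ ({a, b} : Finset ι).card := by
        rw [← Finset.card_univ]
        exact Finset.card_le_card fun x _ => hcon x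
      have h3 : ({a, b} : Finset ι).card ≤ 2 := Finset.card_le_two
      omega
    simp only [Finset.mem_insert, Finset.mem_singleton, not_or] at hk
    set c : Fˣ := Units.mk0 (s / t) (div_ne_zero hs ht) with hc
    have hd : dU a k c ∈ G := hN _ (isMono_diagU _) (det_dU (Ne.symm hk.1) c)
    have : rootU hab s = dU a k c * g * (dU a k c)⁻¹ := by
      apply Units.ext
      ext p q
      rw [dU, conj_diagU_apply, hgt, coe_rootU]
      simp only [Matrix.transvection, Matrix.add_apply, Matrix.one_apply, Matrix.single_apply]
      by_cases hpq : p = q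
      · subst hpq
        have hnot : ¬ (a = p ∧ b = p) := fun h => hab (h.1.trans h.2.symm)
        simp only [if_true, if_neg hnot, add_zero, mul_one]
        rw [mul_inv_cancel₀ (Units.ne_zero _)]
      · simp only [if_neg hpq, zero_add]
        by_cases hh : a = p ∧ b = q
        · obtain ⟨rfl, rfl⟩ := hh
          rw [Function.update_self, Function.update_of_ne (Ne.symm hab),
            Function.update_of_ne (Ne.symm hk.2)]
          simp only [hc, Units.val_mk0, Pi.one_apply, Units.val_one, inv_one, mul_one, and_self,
            if_true]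
          field_simp
        · simp only [if_neg hh, mul_zero, zero_mul]
    rw [this]
    exact G.mul_mem (G.mul_mem hd hg) (G.inv_mem hd)
  intro i j hij t'
  obtain ⟨π, hπa, hπb⟩ := exists_perm_two hab hij
  obtain ⟨ν, hdet, hν⟩ := exists_mono_perm (F := F) π
  have hmono : IsMono (ν : Matrix ι ι F) := ⟨π, fun i j hij => (hν i j).1 hij⟩
  have hνG : ν ∈ G := hN ν hmono hdet
  have hia : (ν : Matrix ι ι F) i a ≠ 0 := (hν i a).2 hπa.symm
  have hjb : (ν : Matrix ι ι F) j b ≠ 0 := (hν j b).2 hπb.symm
  have key : ν * rootU hab (t' * (ν : Matrix ι ι F) j b / (ν : Matrix ι ι F) i a)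
      = rootU hij t' * ν := by
    apply Units.ext
    rw [Units.val_mul, Units.val_mul, coe_rootU, coe_rootU]
    ext p q
    by_cases hq : q = b
    · subst hq
      rw [Matrix.mul_transvection_apply_same]
      by_cases hp : p = i
      · subst hp
        rw [Matrix.transvection_mul_apply_same]
        field_simp
      · rw [Matrix.transvection_mul_apply_of_ne _ _ _ _ hp]
        have : (ν : Matrix ι ι F) p a = 0 := by
          by_contra h0
          exact hp (((hν p a).1 h0).trans hπa)
        rw [this, mul_zero, add_zero]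
    · rw [Matrix.mul_transvection_apply_of_ne _ _ _ _ hq]
      by_cases hp : p = i
      · subst hp
        rw [Matrix.transvection_mul_apply_same]
        have : (ν : Matrix ι ι F) j q = 0 := by
          by_contra h0
          have h1 := (hν j q).1 h0
          rw [← hπb] at h1
          exact hq (π.injective h1).symm
        rw [this, mul_zero, add_zero]
      · rw [Matrix.transvection_mul_apply_of_ne _ _ _ _ hp]
  have : rootU hij t' = ν * rootU hab (t' * (ν : Matrix ι ι F) j b / (ν : Matrix ι ι F) i a) * ν⁻¹ := by
    rw [key, mul_inv_cancel_right]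
  rw [this]
  exact G.mul_mem (G.mul_mem hνG (step1 _)) (G.inv_mem hνG)

end Cfsg.Agent.Lib.Helper8.Mono
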