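import Mathlib
import Cfsg.Agent.Lib.Helper29.Mono.Api
import Cfsg.Agent.Lib.Helper8.Mono.CARD

set_option autoImplicit false

namespace Cfsg.Agent.Lib.Helper8.Mono

open Cfsg.Agent.Lib.Helper29.Mono Matrix
open scoped MatrixGroups

variable {ι : Type} [Fintype ι] [DecidableEq ι] {F : Type*} [Field F]

/-- one reduction step -/
theorem small_span_step (T : Matrix ι ι F) (J : Finset ι) (L : Matrix (Fin 3) ι F)
    (h : ∀ c : ι → F, (∀ i ∉ J, c i = 0) → L *ᵥ c = 0 → T *ᵥ c = 0)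
    (R : Finset ι) (hRJ : R ⊆ J) (hR : 3 < R.card) :
    ∃ j0 ∈ R, ∀ c : ι → F, (∀ i ∉ R, c i = 0) →
      ∃ c' : ι → F, (∀ i ∉ R.erase j0, c' i = 0) ∧ T *ᵥ c' = T *ᵥ c := by
  classical
  have hker : LinearMap.ker (L.submatrix id (Subtype.val : {x // x ∈ R} → ι)).mulVecLin ≠ ⊥ := by
    apply LinearMap.ker_ne_bot_of_finrank_lt
    simpa using hR
  obtain ⟨a, ha, ha0⟩ := (Submodule.ne_bot_iff _).1 hker
  rw [LinearMap.mem_ker, Matrix.mulVecLin_apply, ← mulVec_ext0] at ha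
  obtain ⟨j0, hj0⟩ : ∃ j0, a j0 ≠ 0 := by
    by_contra hcon
    push Not at hcon
    exact ha0 (funext hcon)
  have hsupp : ∀ i ∉ R, ext0 R a i = 0 := fun i hi => ext0_not_mem R a hi
  have hT : T *ᵥ ext0 R a = 0 := h _ (fun i hi => hsupp i (fun hiR => hi (hRJ hiR))) ha
  refine ⟨j0, j0.2, fun c hc => ⟨c - (c j0 / a j0) • ext0 R a, ?_, ?_⟩⟩
  · intro i hi
    by_cases hiR : i ∈ R
    · have : i = j0 := by
        by_contra hne
        exact hi (Finset.mem_erase.2 ⟨hne, hiR⟩)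
      subst this
      simp only [Pi.sub_apply, Pi.smul_apply, smul_eq_mul, ext0_mem]
      field_simp
      ring
    · simp only [Pi.sub_apply, Pi.smul_apply, smul_eq_mul, hc i hiR, hsupp i hiR]
      ring
  · rw [Matrix.mulVec_sub, Matrix.mulVec_smul, hT, smul_zero, sub_zero]

/-- [LA] -/
theorem exists_small_span (T : Matrix ι ι F) (J : Finset ι) (L : Matrix (Fin 3) ι F)
    (h : ∀ c : ι → F, (∀ i ∉ J, c i = 0) → L *ᵥ c = 0 → T *ᵥ c = 0) :
    ∃ R ⊆ J, R.card ≤ 3 ∧ ∀ c : ι → F, (∀ i ∉ J, c i = 0) →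
      ∃ c' : ι → F, (∀ i ∉ R, c' i = 0) ∧ T *ᵥ c' = T *ᵥ c := by
  classical
  have main : ∀ n : ℕ, ∀ R : Finset ι, R.card = n → R ⊆ J →
      (∀ c : ι → F, (∀ i ∉ J, c i = 0) → ∃ c' : ι → F, (∀ i ∉ R, c' i = 0) ∧ T *ᵥ c' = T *ᵥ c) →
      ∃ R ⊆ J, R.card ≤ 3 ∧ ∀ c : ι → F, (∀ i ∉ J, c i = 0) →
        ∃ c' : ι → F, (∀ i ∉ R, c' i = 0) ∧ T *ᵥ c' = T *ᵥ c := by
    intro n
    induction n with
    | zero =>
      intro R hR hRJ hP
      exact ⟨R, hRJ, by omega, hP⟩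
    | succ n ih =>
      intro R hR hRJ hP
      by_cases h3 : R.card ≤ 3
      · exact ⟨R, hRJ, h3, hP⟩
      · obtain ⟨j0, hj0, hstep⟩ := small_span_step T J L h R hRJ (by omega)
        apply ih (R.erase j0) (by rw [Finset.card_erase_of_mem hj0, hR]; rfl)
          ((Finset.erase_subset _ _).trans hRJ)
        intro c hc
        obtain ⟨c', hc', e'⟩ := hP c hc
        obtain ⟨c'', hc'', e''⟩ := hstep c' hc'
        exact ⟨c'', hc'', e''.trans e'⟩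
  exact main J.card J rfl (Finset.Subset.refl J) (fun c hc => ⟨c, hc, rfl⟩)

end Cfsg.Agent.Lib.Helper8.Mono
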