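import Mathlib
import Cfsg.Agent.Lib.Helper29.Mono.Api

set_option autoImplicit false

namespace Cfsg.Agent.Lib.Helper8.Mono

open Cfsg.Agent.Lib.Helper29.Mono Matrix
open scoped MatrixGroups

variable {ι : Type} [Fintype ι] [DecidableEq ι] {F : Type*} [Field F]

/-- [P] -/
theorem pP {G : Subgroup (GL ι F)} (hB4 : B4Prop G) : PProp G := by
  intro g hg c s s' hs hs' hc hgc
  obtain ⟨h, hh, hfix, σ, hσ⟩ := hB4 g hg s s' hs hs'
  have hinv : ((g⁻¹ : GL ι F) : Matrix ι ι F) *ᵥ ((g : Matrix ι ι F) *ᵥ c) = c := by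
    rw [Matrix.mulVec_mulVec, ← Units.val_mul, inv_mul_cancel, Units.val_one, Matrix.one_mulVec]
  have h1 : (h : Matrix ι ι F) *ᵥ ((g : Matrix ι ι F) *ᵥ c) = (g : Matrix ι ι F) *ᵥ c :=
    hfix _ hgc (by rw [hinv]; exact hc)
  rw [Matrix.mulVec_mulVec, ← Units.val_mul] at h1
  refine ⟨σ, fun i => ?_⟩
  rw [← h1, mono_mulVec hσ c i]
  have h2 := mono_entry_ne_zero (h * g) hσ i
  constructor
  · intro h3 h4
    exact h3 (by rw [h4, mul_zero])
  · intro h3
    exact mul_ne_zero h2 h3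

end Cfsg.Agent.Lib.Helper8.Mono
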