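import Mathlib
import Cfsg.Agent.Lib.Helper29.Mono.Api

set_option autoImplicit false

namespace Cfsg.Agent.Lib.Helper8.Mono

open Cfsg.Agent.Lib.Helper29.Mono Matrix
open scoped MatrixGroups

variable {ι : Type} [Fintype ι] [DecidableEq ι] {F : Type*} [Field F]

/-- [RED] -/
theorem reduce_tri [Fintype F] {G : Subgroup (GL ι F)} (hG : Ctx G) (g : GL ι F)
    (J J' : Finset ι) (hcard : J.card = J'.card)
    (h : ∀ i j, j ∈ J → i ∉ J' → (g : Matrix ι ι F) i j = 0) :
    ∃ ν ∈ G, IsMono (ν : Matrix ι ι F) ∧ Tri J ((ν * g : GL ι F) : Matrix ι ι F) := by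
  classical
  set π : Equiv.Perm ι := (Finset.equivOfCardEq hcard.symm).extendSubtype with hπ
  have hπJ : ∀ k, k ∈ J' → π k ∈ J := fun k hk =>
    Equiv.extendSubtype_mem (Finset.equivOfCardEq hcard.symm) k hk
  obtain ⟨ν, hdet, hν⟩ := exists_mono_perm (F := F) π
  have hmono : IsMono (ν : Matrix ι ι F) := ⟨π, fun i j hij => (hν i j).1 hij⟩
  refine ⟨ν, hG.hN ν hmono hdet, hmono, ?_⟩
  intro i j hj hi
  rw [Units.val_mul, Matrix.mul_apply]
  apply Finset.sum_eq_zero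
  intro k _
  by_cases hk : (ν : Matrix ι ι F) i k = 0
  · rw [hk, zero_mul]
  · have hik := (hν i k).1 hk
    have : k ∉ J' := fun hkJ => hi (hik ▸ hπJ k hkJ)
    rw [h k j hj this, mul_zero]

end Cfsg.Agent.Lib.Helper8.Mono
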