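import Mathlib
import Cfsg.Agent.Lib.Helper29.Mono.Api

set_option autoImplicit false

namespace Cfsg.Agent.Lib.Helper8.Mono

open Cfsg.Agent.Lib.Helper29.Mono Matrix
open scoped MatrixGroups

variable {ι : Type} [Fintype ι] [DecidableEq ι] {F : Type*} [Field F]

/-- [RHO] -/
theorem exists_rho [Fintype F] (hq : 5 ≤ Fintype.card F) :
    ∃ (r : ℕ) (ρ : Fˣ), r.Prime ∧ ρ ^ 2 ≠ 1 ∧ ∃ k : ℕ, ρ ^ r ^ k = 1 := by
  classical
  have hcard : Fintype.card Fˣ = Fintype.card F - 1 := Fintype.card_units F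
  rcases Nat.eq_two_pow_or_exists_odd_prime_and_dvd (Fintype.card Fˣ) with ⟨k, hk⟩ | ⟨p, hp, hdvd, hodd⟩
  · obtain ⟨ρ, hρ⟩ : ∃ ρ : Fˣ, ρ ∉ ({1, -1} : Finset Fˣ) := by
      by_contra hcon
      push Not at hcon
      have h1 : Fintype.card Fˣ ≤ ({1, -1} : Finset Fˣ).card := by
        rw [← Finset.card_univ]
        exact Finset.card_le_card fun x _ => hcon x
      have h3 : ({1, -1} : Finset Fˣ).card ≤ 2 := Finset.card_le_two
      omega
    simp only [Finset.mem_insert, Finset.mem_singleton, not_or] at hρ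
    refine ⟨2, ρ, Nat.prime_two, ?_, k, ?_⟩
    · intro h
      have h2 : (ρ : F) ^ 2 = 1 := by
        have := congrArg (fun u : Fˣ => (u : F)) h
        simpa using this
      rcases sq_eq_one_iff.1 h2 with h3 | h3
      · exact hρ.1 (Units.ext (by simpa using h3))
      · exact hρ.2 (Units.ext (by simpa using h3))
    · rw [← hk]
      exact pow_card_eq_one
  · have := Fact.mk hp
    obtain ⟨ρ, hρ⟩ := exists_prime_orderOf_dvd_card p hdvd
    refine ⟨p, ρ, hp, ?_, 1, ?_⟩
    · intro h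
      have h2 : p ∣ 2 := hρ ▸ orderOf_dvd_of_pow_eq_one h
      have h3 : p = 2 := (Nat.prime_dvd_prime_iff_eq hp Nat.prime_two).1 h2
      subst h3
      exact absurd hodd (by decide)
    · rw [pow_one, ← hρ]
      exact pow_orderOf_eq_one ρ

end Cfsg.Agent.Lib.Helper8.Mono
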